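import Cfsg.Agent.G2Fusion.Model
import Cfsg.Agent.G2Syl.Main
import Cfsg.Agent.G2Spec.Hom
import Cfsg.Agent.S1059

/-!
A Sylow 2-subgroup of `G₂(q)`, `q` odd, is the model group.
-/

set_option autoImplicit false
set_option maxHeartbeats 1000000

namespace Cfsg.Agent.G2Fusion

open Subgroup G2Syl Cfsg.Agent.Classical OmegaSylow

universe u

variable {F : Type u} [Field F]

theorem circ_sq_eq_one {v : Circ F} (h : v * v = 1) (h2 : (2 : F) ≠ 0) : v = 1 ∨ v = negOne := by
  have h1 : v.re * v.re - v.im * v.im = 1 := congrArg Circ.re h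
  have h3 := v.norm_eq
  have him : v.im = 0 := by
    have : (2 : F) * (v.im * v.im) = 0 := by linear_combination h3 - h1
    exact mul_self_eq_zero.1 ((mul_eq_zero.1 this).resolve_left h2)
  rw [him] at h1
  rcases mul_self_eq_one_iff.1 (show v.re * v.re = 1 by linear_combination h1) with e | e
  · exact Or.inl (Circ.ext (by rw [e]; rfl) (by rw [him]; rfl))
  · exact Or.inr (Circ.ext (by rw [e]; rfl) (by rw [him]; rfl))

theorem exists_circ_embed [Finite F] (h2 : (2 : F) ≠ 0) :
    ∃ (m : ℕ) (γ : R m → Circ F), Function.Injective γ ∧ (∀ a b, γ (a + b) = γ a * γ b) ∧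
      iota ∈ Set.range γ ∧ m + 3 = twoPart F := by
  classical
  have : Fact (Nat.Prime 2) := ⟨Nat.prime_two⟩
  obtain ⟨S⟩ : Nonempty (Sylow 2 (Circ F)) := inferInstance
  have hcyc : IsCyclic (S : Subgroup (Circ F)) := by
    let L := AlgebraicClosure F
    obtain ⟨i, hi⟩ := IsAlgClosed.exists_eq_mul_self (-1 : L)
    let f : (S : Subgroup (Circ F)) →* L :=
      { toFun := fun v => algebraMap F L v.1.re + i * algebraMap F L v.1.im
        map_one' := by simp [Circ.one_re, Circ.one_im]
        map_mul' := fun v w => by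
          simp [Circ.mul_re, Circ.mul_im]
          linear_combination algebraMap F L v.1.im * algebraMap F L w.1.im * hi }
    refine isCyclic_of_subgroup_isDomain f ?_
    rw [injective_iff_map_eq_one]
    intro v hv
    change algebraMap F L v.1.re + i * algebraMap F L v.1.im = 1 at hv
    have hn := congrArg (algebraMap F L) v.1.norm_eq
    simp at hn
    have h2' : algebraMap F L 2 ≠ 0 := (map_ne_zero _).2 h2
    have hconj : algebraMap F L v.1.re - i * algebraMap F L v.1.im = 1 := by
      linear_combination hn - (algebraMap F L v.1.re - i * algebraMap F L v.1.im) * hv +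
        algebraMap F L v.1.im ^ 2 * hi
    have him : algebraMap F L v.1.im = 0 := by
      have : algebraMap F L 2 * (i * algebraMap F L v.1.im) = 0 := by
        rw [map_ofNat]; linear_combination hv - hconj
      rcases mul_eq_zero.1 ((mul_eq_zero.1 this).resolve_left h2') with e | e
      · rw [e, mul_zero] at hi; simp at hi
      · exact e
    have hre : algebraMap F L v.1.re = 1 := by rw [him, mul_zero, add_zero] at hv; exact hv
    refine Subtype.ext (Circ.ext ?_ ?_)
    · exact (map_eq_one_iff _ (algebraMap F L).injective).1 hre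
    · exact (map_eq_zero _).1 him
  have hiota : (iota : Circ F) ∈ (S : Subgroup (Circ F)) := by
    have hp : IsPGroup 2 (zpowers (iota : Circ F)) := by
      rw [IsPGroup.iff_card, Nat.card_zpowers]
      obtain ⟨j, -, hj⟩ := (Nat.dvd_prime_pow Nat.prime_two).1
        (orderOf_dvd_of_pow_eq_one (show (iota : Circ F) ^ 2 ^ 2 = 1 from iota_pow_four))
      exact ⟨j, hj⟩
    obtain ⟨S', hS'⟩ := hp.exists_le_sylow
    obtain ⟨g, hg⟩ := MulAction.exists_smul_eq (Circ F) S' S
    rw [← hg, Sylow.smul_eq_of_normal]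
    exact hS' (mem_zpowers _)
  have hord : orderOf (iota : Circ F) = 2 ^ 2 := by
    refine orderOf_eq_prime_pow (fun h => ?_) iota_pow_four
    rw [pow_one, pow_two, iota_sq] at h
    have := congrArg Circ.re h
    simp [negOne, Circ.one_re] at this
    exact h2 (by linear_combination -this)
  have hcard := S.card_eq_multiplicity
  rw [Nat.factorization_def _ Nat.prime_two] at hcard
  have hval := val_circ (F := F) h2
  have h4 : 2 ^ 2 ∣ Nat.card (S : Subgroup (Circ F)) := by
    rw [← hord, ← Subgroup.orderOf_mk (H := (S : Subgroup (Circ F))) iota hiota]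
    exact orderOf_dvd_natCard _
  rw [hcard] at h4
  have hle := (Nat.pow_dvd_pow_iff_le_right (by norm_num : 1 < 2)).1 h4
  obtain ⟨m, hm⟩ : ∃ m, padicValNat 2 (Nat.card (Circ F)) = m + 2 := ⟨_, (Nat.sub_add_cancel hle).symm⟩
  rw [hm] at hcard hval
  let e := zmodCyclicMulEquiv hcyc
  let cast : R m ≃+ ZMod (Nat.card (S : Subgroup (Circ F))) := (ZMod.ringEquivCongr hcard.symm).toAddEquiv
  refine ⟨m, fun a => (e (Multiplicative.ofAdd (cast a))).1, ?_, ?_, ?_, by omega⟩
  · intro a b h
    exact cast.injective (Multiplicative.ofAdd.injective (e.injective (Subtype.ext h)))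
  · intro a b
    simp [map_add, ofAdd_add, map_mul]
  · exact ⟨cast.symm (Multiplicative.toAdd (e.symm ⟨iota, hiota⟩)), by simp⟩

theorem exists_model [Finite F] (h2 : (2 : F) ≠ 0) :
    ∃ (m : ℕ) (ψ : D m →* Aut F), Function.Injective ψ ∧ m + 3 = twoPart F ∧
      ∃ P : Sylow 2 (Aut F), (P : Subgroup (Aut F)) = ψ.range := by
  classical
  have : Fact (Nat.Prime 2) := ⟨Nat.prime_two⟩
  obtain ⟨m, γ, hinj, hadd, ⟨a₀, ha₀⟩, htp⟩ := exists_circ_embed h2
  have h0 : γ 0 = 1 := by
    have := hadd 0 0; rw [add_zero] at this; exact left_eq_mul.1 this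
  have hneg : ∀ a, γ (-a) = (γ a)⁻¹ := fun a =>
    eq_inv_of_mul_eq_one_left (by rw [← hadd, neg_add_cancel, h0])
  -- the torus on the coordinates
  let τ : R m → R m → Aut F := fun x y => torus (γ y, γ (x + y))
  have τadd : ∀ x y x' y', τ x y * τ x' y' = τ (x + x') (y + y') := fun x y x' y' => by
    simp only [τ, ← map_mul, Prod.mk_mul_mk, ← hadd]; congr 3; ring
  have τsigma : ∀ x y, sigma * τ x y = τ (-x) (-y) * sigma := fun x y => by
    have := sigma_torus (γ y) (γ (x + y))
    rw [← hneg, ← hneg] at this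
    simp only [τ, show -x + -y = -(x + y) by ring, ← this, mul_assoc, sigma_mul_self, mul_one]
  have τswap : ∀ x y, swap * τ x y = τ y x * swap := fun x y => by
    have := swap_torus (γ y) (γ (x + y))
    rw [← hneg, ← hadd, show -y + (x + y) = x by ring] at this
    simp only [τ, show y + x = x + y by ring, ← this, mul_assoc, swap_mul_self, mul_one]
  let bit : Aut F → Bool → Aut F := fun s b => if b then s else 1
  let f : D m → Aut F := fun p => τ p.x p.y * bit sigma p.e * bit swap p.f
  have τ00 : τ 0 0 = 1 := by simp only [τ, add_zero, h0, ← Prod.one_eq_mk, map_one]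
  have hsw : (swap : Aut F) * sigma = sigma * swap := sigma_commute_swap.eq.symm
  have hmul : ∀ p q, f (p * q) = f p * f q := by
    rintro ⟨a, b, e, f'⟩ ⟨a', b', e', f''⟩
    have move : ∀ (x y : R m) (X : Aut F),
        sigma * (τ x y * X) = τ (-x) (-y) * (sigma * X) ∧ swap * (τ x y * X) = τ y x * (swap * X) := by
      intro x y X
      constructor
      · rw [← mul_assoc, τsigma, mul_assoc]
      · rw [← mul_assoc, τswap, mul_assoc]
    have moves : ∀ (x y : R m) (X : Aut F), sigma * (τ x y * X) = τ (-x) (-y) * (sigma * X) :=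
      fun x y X => (move x y X).1
    have movew : ∀ (x y : R m) (X : Aut F), swap * (τ x y * X) = τ y x * (swap * X) :=
      fun x y X => (move x y X).2
    have adds : ∀ (x y x' y' : R m) (X : Aut F), τ x y * (τ x' y' * X) = τ (x + x') (y + y') * X :=
      fun x y x' y' X => by rw [← mul_assoc, τadd]
    have ss : ∀ X : Aut F, sigma * (sigma * X) = X := fun X => by
      rw [← mul_assoc, sigma_mul_self, one_mul]
    have ws : ∀ X : Aut F, swap * (sigma * X) = sigma * (swap * X) := fun X => by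
      rw [← mul_assoc, hsw, mul_assoc]
    cases e <;> cases f' <;> cases e' <;> cases f'' <;>
      simp [f, bit, mul_def, sg, mul_assoc, τadd, τsigma, τswap, moves, movew, adds, ss, ws,
        hsw, sigma_mul_self, swap_mul_self]
  have hone : f 1 = 1 := by simp [f, bit, one_def, τ00]
  let ψ : D m →* Aut F := { toFun := f, map_one' := hone, map_mul' := hmul }
  have hψ : Function.Injective ψ := by
    rintro ⟨a, b, ee, f'⟩ ⟨a', b', ee', f''⟩ h
    change gen (γ b) (γ (a + b)) ee f' = gen (γ b') (γ (a' + b')) ee' f'' at h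
    obtain ⟨rfl, rfl⟩ := gen_inj h2 h
    have ht : torus (γ b, γ (a + b)) = torus (γ b', γ (a' + b')) :=
      mul_right_cancel (mul_right_cancel h)
    have l : ∀ i j, t1Fun (γ b) (t2Fun (γ (a + b)) (G2Syl.e i)) j =
        t1Fun (γ b') (t2Fun (γ (a' + b')) (G2Syl.e i)) j := fun i j =>
      congrArg (fun k : Aut F => k.1 (G2Syl.e i) j) ht
    have l2 := l 2 2
    have l3 := l 2 3
    have l6 := l 6 6
    have l7 := l 6 7
    simp [t1Fun, t2Fun, G2Syl.e] at l2 l3 l6 l7
    have hb : γ b = γ b' := Circ.ext l2 l3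
    obtain rfl := hinj hb
    have hab : a + b = a' + b := hinj (Circ.ext l6 (by linear_combination l7))
    obtain rfl := add_right_cancel hab
    rfl
  refine ⟨m, ψ, hψ, htp, ?_⟩
  have hcard : Nat.card ψ.range = 2 ^ (2 * twoPart F) := by
    rw [Nat.card_congr (MonoidHom.ofInjective hψ).symm.toEquiv, card_D, ← htp]
    congr 1
  have hP₀ : IsPGroup 2 ψ.range := IsPGroup.of_card hcard
  obtain ⟨P, hP⟩ := hP₀.exists_le_sylow
  refine ⟨P, ?_⟩
  have hmem : ∀ p, ψ p ∈ (P : Subgroup (Aut F)) := fun p => hP ⟨p, rfl⟩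
  have hA : torus ((iota : Circ F), 1) ∈ (P : Subgroup (Aut F)) := by
    have := hmem (t (-a₀) a₀)
    simpa [ψ, f, bit, t, τ, ha₀, h0] using this
  have hB : torus ((1 : Circ F), iota) ∈ (P : Subgroup (Aut F)) := by
    have := hmem (t a₀ 0)
    simpa [ψ, f, bit, t, τ, ha₀, h0] using this
  have hS : (swap : Aut F) ∈ (P : Subgroup (Aut F)) := by
    have := hmem w
    simpa [ψ, f, bit, w, τ00] using this
  have hne : Nontrivial (P : Subgroup (Aut F)) := by
    rw [Subgroup.nontrivial_iff_exists_ne_one]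
    exact ⟨ψ Z, hmem Z, fun h => Z_ne_one (hψ (by rw [h, map_one]))⟩
  have : Nontrivial (center (P : Subgroup (Aut F))) := P.2.center_nontrivial
  obtain ⟨v, hv⟩ := exists_prime_orderOf_dvd_card' (G := center (P : Subgroup (Aut F))) 2 (by
    obtain ⟨n, hn, hc⟩ := ((P.2.to_subgroup _).nontrivial_iff_card).1 this
    rw [hc]; exact dvd_pow_self 2 hn.ne')
  have hcom : ∀ x ∈ (P : Subgroup (Aut F)), Commute (v.1.1 : Aut F) x := fun x hx =>
    (congrArg Subtype.val (mem_center_iff.1 v.2 ⟨x, hx⟩)).symm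
  have hwz : (v.1.1 : Aut F) = zed := by
    have hww : v.1.1 * v.1.1 = 1 := by
      have := pow_orderOf_eq_one v
      rw [hv, pow_two] at this
      exact congrArg (fun k => (k.1.1 : Aut F)) this
    refine (eq_one_or_zed h2 hww (hcom _ hA) (hcom _ hB) (hcom _ hS)).resolve_left fun h1 => ?_
    rw [show v = 1 from Subtype.ext (Subtype.ext h1), orderOf_one] at hv
    omega
  have hPC : (P : Subgroup (Aut F)) ≤ Cent F := by
    intro x hx
    refine mem_centralizer_iff.2 fun y hy => ?_
    rw [Set.mem_singleton_iff.1 hy, ← hwz]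
    exact (hcom x hx).eq
  refine (eq_of_le_of_card_ge hP ?_).symm
  obtain ⟨n, hn⟩ := P.2.exists_card_eq
  rw [hn, hcard]
  refine Nat.pow_le_pow_right (by norm_num) ?_
  have hd := card_dvd_of_le hPC
  rw [hn] at hd
  exact ((padicValNat_dvd_iff_le Nat.card_pos.ne').1 hd).trans (val_card_cent h2)

theorem val_card_chev [Finite F] (h2 : (2 : F) ≠ 0) :
    padicValNat 2 (Nat.card ↥(Cfsg.Lie.chevG2.group F)) = 2 * twoPart F := by
  classical
  have := Fintype.ofFinite F
  rw [S1059.result (F := F) (q := Nat.card F) (Nat.card_eq_fintype_card).symm, twoPart]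
  have hodd : ¬ 2 ∣ Nat.card F := by
    have := two_dvd_sub_one (F := F) h2
    have hq1 : 1 < Nat.card F := Finite.one_lt_card
    omega
  obtain ⟨r, hr⟩ : ∃ r, Nat.card F = r + 1 := ⟨Nat.card F - 1, by
    have : 1 < Nat.card F := Finite.one_lt_card; omega⟩
  have hq1 : 1 < Nat.card F := Finite.one_lt_card
  set q := Nat.card F
  have e2 : q ^ 2 - 1 = (q + 1) * (q - 1) := by
    simpa using Nat.sq_sub_sq q 1
  have e6 : q ^ 6 - 1 = (q + 1) * (q - 1) * (q ^ 4 + q ^ 2 + 1) := by
    rw [← e2]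
    have h1 : 1 ≤ q ^ 2 := Nat.one_le_pow _ _ (by omega)
    have h6 : 1 ≤ q ^ 6 := Nat.one_le_pow _ _ (by omega)
    zify [h1, h6]
    ring
  have hodd4 : ¬ 2 ∣ q ^ 4 + q ^ 2 + 1 := by
    have h4 : q ^ 4 % 2 = 1 := by rw [Nat.pow_mod, show q % 2 = 1 by omega]
    have h2' : q ^ 2 % 2 = 1 := by rw [Nat.pow_mod, show q % 2 = 1 by omega]
    omega
  have hne1 : q + 1 ≠ 0 := by omega
  have hne2 : q - 1 ≠ 0 := by omega
  have hne3 : q ^ 4 + q ^ 2 + 1 ≠ 0 := by omega
  rw [e2, e6, padicValNat.mul (mul_ne_zero (pow_ne_zero _ (by omega)) (mul_ne_zero hne1 hne2))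
      (mul_ne_zero (mul_ne_zero hne1 hne2) hne3),
    padicValNat.mul (pow_ne_zero _ (by omega)) (mul_ne_zero hne1 hne2),
    padicValNat.mul (mul_ne_zero hne1 hne2) hne3, padicValNat.mul hne1 hne2,
    padicValNat.pow, padicValNat.eq_zero_of_not_dvd hodd, padicValNat.eq_zero_of_not_dvd hodd4]
  ring

/-- A Sylow 2-subgroup of `G₂(q)` is the model. -/
theorem exists_equiv [Finite F] (h2 : (2 : F) ≠ 0) (P : Sylow 2 ↥(Cfsg.Lie.chevG2.group F)) :
    ∃ m : ℕ, Nonempty (D m ≃* (P : Subgroup ↥(Cfsg.Lie.chevG2.group F))) := by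
  classical
  have : Fact (Nat.Prime 2) := ⟨Nat.prime_two⟩
  have := Fintype.ofFinite F
  have hF : 3 ≤ Fintype.card F := by
    have := two_dvd_sub_one (F := F) h2
    have hq1 : 1 < Nat.card F := Finite.one_lt_card
    rw [← Nat.card_eq_fintype_card]
    omega
  obtain ⟨ρ, hρ, -⟩ := G2Spec.exists_rho hF
  obtain ⟨φ⟩ := nonempty_equiv_G2 (F := F) h2
  obtain ⟨m, ψ, hψ, htp, Q, hQ⟩ := exists_model (F := F) h2
  let j : ↥(Cfsg.Lie.chevG2.group F) →* Aut F := φ.symm.toMonoidHom.comp ρ
  have hj : Function.Injective j := φ.symm.injective.comp hρ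
  set R' := (P : Subgroup ↥(Cfsg.Lie.chevG2.group F)).map j
  obtain ⟨P', hP'⟩ := (P.isPGroup'.map j).exists_le_sylow
  have hR : Nat.card R' = 2 ^ (2 * twoPart F) := by
    rw [Nat.card_congr ((P : Subgroup _).equivMapOfInjective j hj).symm.toEquiv,
      P.card_eq_multiplicity, Nat.factorization_def _ Nat.prime_two, val_card_chev h2]
  have hP'card : Nat.card (P' : Subgroup (Aut F)) = 2 ^ (2 * twoPart F) := by
    rw [Nat.card_congr (P'.equiv Q).toEquiv, hQ, Nat.card_congr (MonoidHom.ofInjective hψ).symm.toEquiv,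
      card_D, ← htp]
    congr 1
  have heq : R' = (P' : Subgroup (Aut F)) := eq_of_le_of_card_ge hP' (by rw [hR, hP'card])
  exact ⟨m, ⟨(((MonoidHom.ofInjective hψ).trans (MulEquiv.subgroupCongr hQ.symm)).trans
    (Q.equiv P')).trans ((MulEquiv.subgroupCongr heq.symm).trans
      ((P : Subgroup _).equivMapOfInjective j hj).symm)⟩⟩

end Cfsg.Agent.G2Fusion
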