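import Cfsg.Agent.G2Fusion.Model
import Cfsg.Agent.DihProd.Conj
import Cfsg.Agent.Invol.RankOneQuot
import Cfsg.Agent.Cores.Basic
import Mathlib.Algebra.Group.ConjFinite

/-!
Classes of involutions of a simple group with a Sylow 2-subgroup of type `G₂(q)`, `q` odd.
-/

set_option autoImplicit false
set_option linter.unusedSectionVars false

namespace Cfsg.Agent.G2Fusion

open Subgroup

universe u

section

variable {G : Type u} [Group G] [Finite G] {m : ℕ} (S : Sylow 2 G) (φ : D m →* G)
  (hφ : Function.Injective φ) (hS : φ.range = (S : Subgroup G))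

include hφ hS

theorem isPGroup_map (P : Subgroup (D m)) : IsPGroup 2 (P.map φ) :=
  S.isPGroup'.to_le (hS ▸ map_le_range _ _)

theorem orderOf_map {r : D m} (h : r * r = 1) (hne : r ≠ 1) : orderOf (φ r) = 2 :=
  orderOf_eq_prime (by rw [pow_two, ← map_mul, h, map_one]) fun e => hne (hφ (by rw [e, map_one]))

/-- Thompson transfer inside the model. -/
theorem exists_carry (hno : ∀ H : Subgroup G, H.index ≠ 2) (χ : D m →* Multiplicative (ZMod 2))
    {r : D m} (h : r * r = 1) (hr : χ r ≠ 1) :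
    ∃ (g : G) (v : D m), χ v = 1 ∧ v * v = 1 ∧ v ≠ 1 ∧ g * φ r * g⁻¹ = φ v ∧
      ∀ p, Commute p r → ∃ p' : D m, g * φ p * g⁻¹ = φ p' := by
  have hne : r ≠ 1 := by rintro rfl; exact hr (map_one _)
  have hsurj : χ.range = ⊤ := by
    rw [eq_top_iff]
    rintro a -
    rcases (show ∀ b : ZMod 2, b = 0 ∨ b = Multiplicative.toAdd (χ r) from by
      have h1 : Multiplicative.toAdd (χ r) ≠ 0 := hr
      revert h1; generalize Multiplicative.toAdd (χ r) = c; revert c; decide) (Multiplicative.toAdd a)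
      with e | e
    · exact ⟨1, by rw [map_one]; exact e.symm⟩
    · exact ⟨r, e.symm⟩
  have hidx : χ.ker.index = 2 := by
    rw [index_ker, hsurj, card_top]; simp
  have hle : χ.ker.map φ ≤ (S : Subgroup G) := hS ▸ map_le_range _ _
  have hrel : (χ.ker.map φ).relIndex (S : Subgroup G) = 2 := by
    rw [← hS, MonoidHom.range_eq_map, relIndex_map_map_of_injective _ _ hφ, relIndex_top_right, hidx]
  have hnorm : ∀ s ∈ (S : Subgroup G), ∀ a ∈ χ.ker.map φ, s * a * s⁻¹ ∈ χ.ker.map φ := by
    rintro s hs _ ⟨a, ha, rfl⟩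
    rw [← hS] at hs
    obtain ⟨b, rfl⟩ := hs
    exact ⟨b * a * b⁻¹, (MonoidHom.normal_ker χ).conj_mem a ha b, by simp⟩
  obtain ⟨g, hg, hP⟩ := DihProd.exists_transfer_conj hno S (χ.ker.map φ) hle hrel hnorm
    (orderOf_map S φ hφ hS h hne) ((centralizer {r}).map φ) (isPGroup_map S φ hφ hS _) (by
      rintro _ ⟨p, hp, rfl⟩
      exact Commute.map (mem_centralizer_singleton_iff.1 hp) φ)
  obtain ⟨v, hv, hgv⟩ := hg
  have hvv : v * v = 1 := hφ (by
    rw [map_mul, hgv, conj_mul, ← map_mul, h, map_one, mul_one, mul_inv_cancel])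
  have hv1 : v ≠ 1 := by
    rintro rfl
    rw [map_one, eq_comm, conj_eq_one_iff] at hgv
    exact hne (hφ (by rw [hgv, map_one]))
  refine ⟨g, v, hv, hvv, hv1, hgv.symm, fun p hp => ?_⟩
  have := hP (φ p) (mem_map_of_mem φ (mem_centralizer_singleton_iff.2 hp))
  rw [← hS] at this
  obtain ⟨p', hp'⟩ := this
  exact ⟨p', hp'.symm⟩

theorem central_Z : ∀ s ∈ (S : Subgroup G), Commute s (φ Z) := by
  intro s hs
  rw [← hS] at hs
  obtain ⟨p, rfl⟩ := hs
  exact ((Z_comm p).symm).map φ

/-- If an involution whose centraliser has derived subgroup containing the centre is conjugate to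
the central involution, the two torus involutions are conjugate. -/
theorem derived_step {r : D m} (hrZ : r ≠ Z)
    (hc : ∃ p q : D m, Commute p r ∧ Commute q r ∧ p * q * p⁻¹ * q⁻¹ = Z)
    (hconj : IsConj (φ r) (φ Z)) : IsConj (φ U) (φ Z) := by
  obtain ⟨p, q, hp, hq, hpq⟩ := hc
  obtain ⟨g₀, hg₀⟩ := isConj_iff.1 hconj
  obtain ⟨g, hg, hP⟩ := DihProd.exists_conj_to_central S hg₀ (central_Z S φ hφ hS)
    ((centralizer {r}).map φ) (isPGroup_map S φ hφ hS _) (by
      rintro _ ⟨x, hx, rfl⟩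
      exact Commute.map (mem_centralizer_singleton_iff.1 hx) φ)
  have hlift : ∀ x, Commute x r → ∃ x' : D m, φ x' = g * φ x * g⁻¹ := by
    intro x hx
    have := hP (φ x) (mem_map_of_mem φ (mem_centralizer_singleton_iff.2 hx))
    rwa [← hS] at this
  obtain ⟨p', hp'⟩ := hlift p hp
  obtain ⟨q', hq'⟩ := hlift q hq
  have e : φ (p' * q' * p'⁻¹ * q'⁻¹) = g * φ Z * g⁻¹ := by
    simp only [← hpq, map_mul, map_inv, hp', hq']; group
  obtain ⟨he, hf⟩ := commutator_shape p' q'
  generalize p' * q' * p'⁻¹ * q'⁻¹ = v at e he hf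
  obtain ⟨a, b, e', f'⟩ := v
  simp only at he hf
  subst he hf
  have hvv : t a b * t a b = 1 := hφ (by
    rw [map_mul, show t a b = ⟨a, b, false, false⟩ from rfl, e, conj_mul, ← map_mul, Z_sq, map_one,
      mul_one, mul_inv_cancel])
  have hv1 : t a b ≠ 1 := by
    intro h
    rw [show t a b = ⟨a, b, false, false⟩ from rfl] at h
    rw [h, map_one, eq_comm, conj_eq_one_iff] at e
    exact Z_ne_one (hφ (by rw [e, map_one]))
  have e' : IsConj (φ Z) (φ (t a b)) := isConj_iff.2 ⟨g, e.symm⟩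
  rcases torus_invol hvv hv1 with h | h | h
  · exfalso
    apply hrZ
    apply hφ
    have : g * φ r * g⁻¹ = g * φ Z * g⁻¹ := by rw [hg, ← e]; exact congrArg φ h.symm
    simpa using this
  · rw [h] at e'; exact e'.symm
  · rw [h, map_mul, map_mul, map_inv] at e'
    exact (isConj_iff.2 ⟨φ w, rfl⟩ : IsConj (φ U) _).trans e'.symm

/-- Every involution is conjugate to the image of one of the seven. -/
theorem invol_reps (x : G) (hx : orderOf x = 2) :
    IsConj x (φ Z) ∨ IsConj x (φ U) ∨ IsConj x (φ c) ∨ IsConj x (φ abc) ∨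
      IsConj x (φ ac) ∨ IsConj x (φ w) ∨ IsConj x (φ wc) := by
  have : Fact (Nat.Prime 2) := ⟨Nat.prime_two⟩
  have hp : IsPGroup 2 (zpowers x) := IsPGroup.of_card (n := 1) (by rw [Nat.card_zpowers, hx, pow_one])
  obtain ⟨T, hT⟩ := hp.exists_le_sylow
  obtain ⟨g, hg⟩ := MulAction.exists_smul_eq G T S
  have hgS : g * x * g⁻¹ ∈ (S : Subgroup G) := by
    rw [← hg, Sylow.coe_subgroup_smul]
    exact ⟨x, hT (mem_zpowers x), rfl⟩
  rw [← hS] at hgS
  obtain ⟨p, hp⟩ := hgS
  have hxp : IsConj x (φ p) := isConj_iff.2 ⟨g, hp.symm⟩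
  have hpp : p * p = 1 := hφ (by
    rw [map_mul, hp, conj_mul, ← pow_two, ← hx, pow_orderOf_eq_one, mul_one, mul_inv_cancel, map_one])
  have hp1 : p ≠ 1 := by
    rintro rfl
    rw [map_one, eq_comm, conj_eq_one_iff] at hp
    rw [hp, orderOf_one] at hx
    omega
  obtain ⟨q, h⟩ := invol_cases hpp hp1
  have key : ∀ {r : D m}, q * p * q⁻¹ = r → IsConj x (φ r) := fun {r} e =>
    hxp.trans (isConj_iff.2 ⟨φ q, by rw [← map_inv, ← map_mul, ← map_mul, e]⟩)
  rcases h with h | h | h | h | h | h | h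
  · exact Or.inl (key h)
  · exact Or.inr (Or.inl (key h))
  · exact Or.inr (Or.inr (Or.inl (key h)))
  · exact Or.inr (Or.inr (Or.inr (Or.inl (key h))))
  · exact Or.inr (Or.inr (Or.inr (Or.inr (Or.inl (key h)))))
  · exact Or.inr (Or.inr (Or.inr (Or.inr (Or.inr (Or.inl (key h))))))
  · exact Or.inr (Or.inr (Or.inr (Or.inr (Or.inr (Or.inr (key h))))))

theorem conj_model {r v : D m} (q : D m) (h : q * r * q⁻¹ = v) : IsConj (φ r) (φ v) :=
  isConj_iff.2 ⟨φ q, by rw [← map_inv, ← map_mul, ← map_mul, h]⟩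

end

variable {G : Type u} [Group G] [Finite G] [IsSimpleGroup G] {m : ℕ}

theorem no_index_two (hna : ¬ IsMulCommutative G) (H : Subgroup G) : H.index ≠ 2 := by
  intro h
  rcases (normal_of_index_eq_two h).eq_bot_or_eq_top with e | e
  · rw [e, index_bot] at h
    have : IsCyclic G := isCyclic_of_prime_card (p := 2) h
    exact hna inferInstance
  · rw [e, index_top] at h; omega

theorem not_isolated (hna : ¬ IsMulCommutative G) {z : G} (hz : orderOf z = 2) :
    ∃ g : G, Commute (g * z * g⁻¹) z ∧ g * z * g⁻¹ ≠ z := by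
  by_contra hcon
  push Not at hcon
  have hiso : Invol.IsIsolatedInv z := ⟨hz, hcon⟩
  have hcore : Cfsg.pPrimeCore 2 G = ⊥ := by
    have : Fact (Nat.Prime 2) := ⟨Nat.prime_two⟩
    rcases (inferInstance : (Cfsg.pPrimeCore 2 G).Normal).eq_bot_or_eq_top with h | h
    · exact h
    · exfalso
      have h1 := Cores.not_dvd_card_pPrimeCore (G := G) (p := 2)
      rw [h, card_top] at h1
      exact h1 (hz ▸ orderOf_dvd_natCard z)
  have hc : z ∈ center G := by
    rw [mem_center_iff]
    intro g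
    have := Invol.zStar_theorem G z hiso g
    rw [hcore, mem_bot, commutatorElement_eq_one_iff_mul_comm] at this
    exact this.symm
  rcases (inferInstance : (center G).Normal).eq_bot_or_eq_top with h | h
  · rw [h, mem_bot] at hc
    rw [hc, orderOf_one] at hz
    omega
  · exact hna ⟨⟨fun a b => ((mem_center_iff.1 (h ▸ mem_top a)) b).symm⟩⟩

variable (hna : ¬ IsMulCommutative G) (S : Sylow 2 G) (φ : D m →* G) (hφ : Function.Injective φ)
  (hS : φ.range = (S : Subgroup G))

include hna hφ hS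

theorem conj_U_Z : IsConj (φ U) (φ Z) := by
  by_contra hU
  have hz : orderOf (φ Z) = 2 := orderOf_map S φ hφ hS Z_sq Z_ne_one
  obtain ⟨g, hg, hgne⟩ := not_isolated hna hz
  obtain ⟨h, hh', hP⟩ := DihProd.exists_conj_to_central S (u := φ Z) (g₀ := 1) (by simp)
    (central_Z S φ hφ hS) (zpowers (g * φ Z * g⁻¹))
    (IsPGroup.of_card (n := 1) (by
      rw [Nat.card_zpowers, ← MulAut.conj_apply, MulEquiv.orderOf_eq, hz, pow_one]))
    (fun p hp => by obtain ⟨k, rfl⟩ := mem_zpowers_iff.1 hp; exact hg.zpow_left k)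
  have hxS := hP _ (mem_zpowers _)
  rw [← hS] at hxS
  obtain ⟨p, hp⟩ := hxS
  have hxc : IsConj (φ Z) (φ p) := isConj_iff.2 ⟨h * g, by rw [hp]; group⟩
  have hpZ : p ≠ Z := by
    rintro rfl
    apply hgne
    have : h * (g * φ Z * g⁻¹) * h⁻¹ = h * φ Z * h⁻¹ := by rw [hh', ← hp]
    simpa using this
  -- a conjugate of the central involution in the model is of odd type
  have key : ∀ v : D m, v * v = 1 → v ≠ 1 → v ≠ Z → IsConj (φ v) (φ Z) →
      ∃ q : D m, q * v * q⁻¹ = ac := by
    intro v hvv hv1 hvZ hvc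
    obtain ⟨q, hq⟩ := invol_cases hvv hv1
    have hc : ∀ r, q * v * q⁻¹ = r → IsConj (φ r) (φ Z) := fun r e =>
      (conj_model S φ hφ hS q e).symm.trans hvc
    have hsgn : (q * v * q⁻¹).e = v.e ∧ (q * v * q⁻¹).f = v.f := by
      obtain ⟨a, b, e, f⟩ := q
      obtain ⟨a', b', e', f'⟩ := v
      cases e <;> cases f <;> cases e' <;> cases f' <;> simp [mul_def, inv_def]
    rcases hq with e | e | e | e | e | e | e
    · exfalso
      apply hvZ
      calc v = q⁻¹ * (q * v * q⁻¹) * q := by group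
        _ = Z := by rw [e, mul_assoc, (Z_comm q).eq, ← mul_assoc, inv_mul_cancel, one_mul]
    · exact absurd (hc _ e) hU
    · exact absurd (derived_step S φ hφ hS (fun h => by simpa [c, Z] using congrArg D.e h) comm_c
        (hc _ e)) hU
    · exact absurd (derived_step S φ hφ hS (fun h => by simpa [abc, Z] using congrArg D.e h) comm_abc
        (hc _ e)) hU
    · exact ⟨q, e⟩
    · exact absurd (derived_step S φ hφ hS (fun h => by simpa [w, Z] using congrArg D.f h) comm_w
        (hc _ e)) hU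
    · exact absurd (derived_step S φ hφ hS (fun h => by simpa [wc, Z] using congrArg D.e h) comm_wc
        (hc _ e)) hU
  have hp2 : p * p = 1 := hφ (by
    rw [map_mul, hp, conj_mul, conj_mul, ← map_mul, Z_sq, map_one]; simp)
  have hp1 : p ≠ 1 := by
    rintro rfl
    rw [map_one, eq_comm, conj_eq_one_iff, conj_eq_one_iff] at hp
    exact Z_ne_one (hφ (by rw [hp, map_one]))
  obtain ⟨q, hq⟩ := key p hp2 hp1 hpZ hxc.symm
  have hac : IsConj (φ ac) (φ Z) := (hxc.trans (conj_model S φ hφ hS q hq)).symm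
  obtain ⟨g₀, hg₀⟩ := isConj_iff.1 hac
  obtain ⟨k, hk, hkP⟩ := DihProd.exists_conj_to_central S hg₀ (central_Z S φ hφ hS)
    ((centralizer {(ac : D m)}).map φ) (isPGroup_map S φ hφ hS _) (by
      rintro _ ⟨x, hx, rfl⟩
      exact Commute.map (mem_centralizer_singleton_iff.1 hx) φ)
  have hUac : Commute U (ac : D m) := by
    simp [Commute, SemiconjBy, U, ac, mul_def, sg, neg_hh, add_comm]
  have := hkP (φ U) (mem_map_of_mem φ (mem_centralizer_singleton_iff.2 hUac))
  rw [← hS] at this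
  obtain ⟨u', hu'⟩ := this
  -- `U * ac` is conjugate to `ac`
  have hUac' : IsConj (φ (U * ac)) (φ Z) := by
    refine IsConj.trans ?_ hac
    refine conj_model S φ hφ hS (t (-kk m) 0) ?_
    simp [t, U, ac, mul_def, inv_def, sg, ← two_mul_kk]
    ring
  have hv : φ (u' * Z) = k * φ (U * ac) * k⁻¹ := by
    rw [map_mul, hu', map_mul, ← hk]; group
  have hvc : IsConj (φ (u' * Z)) (φ Z) :=
    (isConj_iff.2 ⟨k, hv.symm⟩ : IsConj (φ (U * ac)) _).symm.trans hUac'
  have hU2 : (U : D m) * U = 1 := by simp [U, mul_def, one_def, sg, hh_add_hh]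
  have hU1 : (U : D m) ≠ 1 := fun h => hh_ne_zero m (congrArg D.x h)
  have hu2 : u' * u' = 1 := hφ (by rw [map_mul, hu', conj_mul, ← map_mul, hU2, map_one]; simp)
  have hu1 : u' ≠ 1 := by
    rintro rfl
    rw [map_one, eq_comm, conj_eq_one_iff] at hu'
    exact hU1 (hφ (by rw [hu', map_one]))
  have hvv : u' * Z * (u' * Z) = 1 := by
    rw [(Z_comm u').mul_mul_mul_comm, hu2, Z_sq, one_mul]
  have hv1 : u' * Z ≠ 1 := fun h => by
    have e : u' = Z := by
      rw [← mul_one u', ← Z_sq, ← mul_assoc, h, one_mul]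
    have : φ U = φ ac := by
      have : k * φ U * k⁻¹ = k * φ ac * k⁻¹ := by rw [hk, ← hu', e]
      simpa using this
    simpa [U, ac] using congrArg D.e (hφ this)
  have hvZ : u' * Z ≠ Z := fun h => hu1 (by simpa using h)
  obtain ⟨q', hq'⟩ := key _ hvv hv1 hvZ hvc
  apply hU
  refine ((isConj_iff.2 ⟨k, hu'.symm⟩ : IsConj (φ U) (φ u')).trans ?_).trans hac
  -- `u'` is again of odd type
  have h1 : q' * u' * q'⁻¹ = ac * Z := by
    calc q' * u' * q'⁻¹ = q' * (u' * Z * Z) * q'⁻¹ := by rw [mul_assoc u', Z_sq, mul_one]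
      _ = q' * (u' * Z) * q'⁻¹ * Z := by
        rw [← mul_assoc q', mul_assoc _ Z, (Z_comm q'⁻¹).eq, ← mul_assoc]
      _ = ac * Z := by rw [hq']
  refine (conj_model S φ hφ hS q' h1).trans (conj_model S φ hφ hS (t (-kk m) (-kk m)) ?_)
  simp [t, Z, ac, mul_def, inv_def, sg, neg_hh]
  constructor <;> linear_combination -(two_mul_kk m)

/-- The classes. -/
theorem classes :
    (∀ x y : G, orderOf x = 2 → orderOf y = 2 → IsConj x y) ∨
      (m = 0 ∧ ∃ x y : G, orderOf x = 2 ∧ orderOf y = 2 ∧ ¬ IsConj x y ∧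
        ∀ z : G, orderOf z = 2 → IsConj z x ∨ IsConj z y) := by
  have hno := no_index_two (G := G) hna
  have hU := conj_U_Z hna S φ hφ hS
  have torusZ : ∀ v : D m, v * v = 1 → v ≠ 1 → v.e = false → v.f = false → IsConj (φ v) (φ Z) := by
    rintro ⟨a, b, e, f⟩ h1 h2 rfl rfl
    rcases torus_invol (a := a) (b := b) h1 h2 with h | h | h <;> unfold t at h <;> rw [h]
    · exact hU
    · exact (conj_model S φ hφ hS w⁻¹ (by group)).trans hU
  -- the first maximal subgroup: trivial inversion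
  have stepE : ∀ r : D m, r * r = 1 → r.e = true →
      IsConj (φ r) (φ Z) ∨ IsConj (φ r) (φ w) := by
    intro r hrr hre
    obtain ⟨g, v, hv, hvv, hv1, hgv, -⟩ := exists_carry S φ hφ hS hno (chi 0 1 0) hrr (fun h => by
      rw [chi_one_iff] at h; simp [hre] at h)
    have hc : IsConj (φ r) (φ v) := isConj_iff.2 ⟨g, hgv⟩
    rw [chi_one_iff] at hv
    have hve : v.e = false := by
      cases hb : v.e
      · rfl
      · simp [hb] at hv
    obtain ⟨q, hq⟩ := invol_cases hvv hv1
    have hsgn : (q * v * q⁻¹).e = v.e := by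
      obtain ⟨a, b, e, f⟩ := q
      obtain ⟨a', b', e', f'⟩ := v
      cases e <;> cases f <;> cases e' <;> cases f' <;> simp [mul_def, inv_def]
    rw [hve] at hsgn
    have hc' : ∀ s, q * v * q⁻¹ = s → IsConj (φ r) (φ s) := fun s e =>
      hc.trans (conj_model S φ hφ hS q e)
    rcases hq with e | e | e | e | e | e | e
    · exact Or.inl (hc' _ e)
    · exact Or.inl ((hc' _ e).trans hU)
    · rw [e] at hsgn; simp [c] at hsgn
    · rw [e] at hsgn; simp [abc] at hsgn
    · rw [e] at hsgn; simp [ac] at hsgn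
    · exact Or.inr (hc' _ e)
    · rw [e] at hsgn; simp [wc] at hsgn
  have hall : ∀ x : G, orderOf x = 2 → IsConj x (φ Z) ∨ IsConj x (φ w) := by
    intro x hx
    rcases invol_reps S φ hφ hS x hx with h | h | h | h | h | h | h
    · exact Or.inl h
    · exact Or.inl (h.trans hU)
    · exact (stepE c (by simp [c, mul_def, one_def, sg]) rfl).imp h.trans h.trans
    · exact (stepE abc (by simp [abc, mul_def, one_def, sg]) rfl).imp h.trans h.trans
    · exact (stepE ac (by simp [ac, mul_def, one_def, sg]) rfl).imp h.trans h.trans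
    · exact Or.inr h
    · exact (stepE wc (by simp [wc, mul_def, one_def, sg]) rfl).imp h.trans h.trans
  by_cases hw : IsConj (φ w) (φ Z)
  · left
    intro x y hx hy
    have hz : ∀ a : G, orderOf a = 2 → IsConj a (φ Z) := fun a ha =>
      (hall a ha).elim id fun h => h.trans hw
    exact (hz x hx).trans (hz y hy).symm
  right
  have hww : (w : D m) * w = 1 := by simp [w, mul_def, one_def, sg]
  have hw1 : (w : D m) ≠ 1 := fun h => by simpa [w, one_def] using congrArg D.f h
  refine ⟨?_, φ Z, φ w, orderOf_map S φ hφ hS Z_sq Z_ne_one, orderOf_map S φ hφ hS hww hw1,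
    fun h => hw h.symm, hall⟩
  by_contra hm
  apply hw
  obtain ⟨g, v, hv, hvv, hv1, hgv, hP⟩ := exists_carry S φ hφ hS hno (chi 0 0 1) hww (fun h => by
    rw [chi_one_iff] at h; simp [w] at h)
  have hvf : v.f = false := by
    rw [chi_one_iff] at hv
    cases hb : v.f
    · rfl
    · simp [hb] at hv
  have hve : v.e = false := by
    by_contra he
    obtain ⟨p', hp'⟩ := hP (t 1 1) (by simp [Commute, SemiconjBy, t, w, mul_def, sg])
    have hcomm : Commute p' v := by
      apply commute_of_injective hφ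
      rw [← hp', ← hgv]
      have : Commute (φ (t 1 1)) (φ w) :=
        Commute.map (by simp [Commute, SemiconjBy, t, w, mul_def, sg]) φ
      exact this.conj g
    have h4 := pow_four_of_commute (by simpa using he) hvf hcomm
    apply t_one_pow_four (m := m) (Nat.pos_of_ne_zero hm)
    apply hφ
    rw [map_pow, map_one]
    have e : (g * φ (t 1 1) * g⁻¹) ^ 4 = 1 := by rw [hp', ← map_pow, h4, map_one]
    rwa [conj_pow, conj_eq_one_iff] at e
  exact (isConj_iff.2 ⟨g, hgv⟩ : IsConj (φ w) (φ v)).trans (torusZ v hvv hv1 hve hvf)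
where
  commute_of_injective {φ : D m →* G} (hφ : Function.Injective φ) {a b : D m}
      (h : Commute (φ a) (φ b)) : Commute a b := hφ (by rw [map_mul, map_mul]; exact h.eq)

end Cfsg.Agent.G2Fusion
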