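import Mathlib

/-!
The abstract Sylow 2-subgroup of `G₂(q)`, `q` odd: `(Z_N × Z_N) : (inversion × swap)` with
`N = 2 ^ (m + 2)`.
-/

set_option autoImplicit false

namespace Cfsg.Agent.G2Fusion

/-- The coefficient ring. -/
abbrev R (m : ℕ) := ZMod (2 ^ (m + 2))

instance instNeZeroR (m : ℕ) : NeZero (2 ^ (m + 2)) := ⟨by positivity⟩

/-- The half. -/
def hh (m : ℕ) : R m := ((2 ^ (m + 1) : ℕ) : R m)

/-- A quarter. -/
def kk (m : ℕ) : R m := ((2 ^ m : ℕ) : R m)

/-- Parity. -/
def par (m : ℕ) : R m →+* ZMod 2 := ZMod.castHom (dvd_pow_self 2 (Nat.succ_ne_zero _)) _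

theorem two_mul_kk (m : ℕ) : 2 * kk m = hh m := by
  simp only [kk, hh, Nat.cast_pow, Nat.cast_ofNat]; ring

theorem kk_add_kk (m : ℕ) : kk m + kk m = hh m := by rw [← two_mul, two_mul_kk]

theorem hh_ne_zero (m : ℕ) : hh m ≠ 0 := by
  rw [hh, Ne, ZMod.natCast_eq_zero_iff]
  intro h
  have := Nat.le_of_dvd (by positivity) h
  have : 2 ^ (m + 1) < 2 ^ (m + 2) := Nat.pow_lt_pow_right (by norm_num) (by omega)
  omega

theorem hh_add_hh (m : ℕ) : hh m + hh m = 0 := by
  rw [hh, ← Nat.cast_add, ← two_mul, ← pow_succ']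
  exact ZMod.natCast_self _

theorem neg_hh (m : ℕ) : -hh m = hh m := neg_eq_of_add_eq_zero_left (hh_add_hh m)

theorem par_hh (m : ℕ) : par m (hh m) = 0 := by
  rw [hh, map_natCast, ZMod.natCast_eq_zero_iff]
  exact dvd_pow_self 2 (Nat.succ_ne_zero _)

theorem par_two (m : ℕ) (x : R m) : par m (x + x) = 0 := by
  rw [map_add]; exact CharTwo.add_self_eq_zero _

theorem eq_zero_or_hh {m : ℕ} {x : R m} (hx : x + x = 0) : x = 0 ∨ x = hh m := by
  have h : ((x.val + x.val : ℕ) : R m) = 0 := by push_cast; rw [ZMod.natCast_rightInverse x]; exact hx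
  rw [ZMod.natCast_eq_zero_iff] at h
  have hv : x.val < 2 ^ (m + 2) := ZMod.val_lt x
  obtain ⟨k, hk⟩ := h
  have hk2 : k = 0 ∨ k = 1 := by
    rcases k with _ | _ | k
    · simp
    · simp
    · exfalso
      nlinarith
  rcases hk2 with rfl | rfl
  · left; exact (ZMod.val_eq_zero x).1 (by omega)
  · right
    have : x.val = 2 ^ (m + 1) := by
      rw [mul_one] at hk; rw [pow_succ' 2 m]; simp only [pow_succ' 2 (m + 1), pow_succ' 2 m] at hk; omega
    rw [← ZMod.natCast_rightInverse x, this]; rfl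

theorem exists_half {m : ℕ} (x : R m) : ∃ y : R m, x = y + y ∨ x = y + y + 1 := by
  refine ⟨((x.val / 2 : ℕ) : R m), ?_⟩
  rcases Nat.mod_two_eq_zero_or_one x.val with h | h
  · left
    rw [← Nat.cast_add, show x.val / 2 + x.val / 2 = x.val by omega, ZMod.natCast_rightInverse x]
  · right
    rw [← Nat.cast_add, ← Nat.cast_one, ← Nat.cast_add,
      show x.val / 2 + x.val / 2 + 1 = x.val by omega, ZMod.natCast_rightInverse x]

theorem four_ne_zero {m : ℕ} (hm : 1 ≤ m) : ((4 : ℕ) : R m) ≠ 0 := by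
  rw [Ne, ZMod.natCast_eq_zero_iff]
  intro h
  have := Nat.le_of_dvd (by norm_num) h
  have : 2 ^ 3 ≤ 2 ^ (m + 2) := Nat.pow_le_pow_right (by norm_num) (by omega)
  omega

/-- The model group. -/
@[ext]
structure D (m : ℕ) where
  x : R m
  y : R m
  e : Bool
  f : Bool
deriving DecidableEq

variable {m : ℕ}

/-- Signs. -/
def sg (e : Bool) (a : R m) : R m := if e then -a else a

instance : Mul (D m) where
  mul p q := ⟨p.x + sg p.e (if p.f then q.y else q.x), p.y + sg p.e (if p.f then q.x else q.y),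
    xor p.e q.e, xor p.f q.f⟩

instance : One (D m) where one := ⟨0, 0, false, false⟩

instance : Inv (D m) where
  inv p := ⟨-sg p.e (if p.f then p.y else p.x), -sg p.e (if p.f then p.x else p.y), p.e, p.f⟩

theorem mul_def (p q : D m) : p * q = ⟨p.x + sg p.e (if p.f then q.y else q.x),
    p.y + sg p.e (if p.f then q.x else q.y), xor p.e q.e, xor p.f q.f⟩ := rfl

theorem one_def : (1 : D m) = ⟨0, 0, false, false⟩ := rfl

theorem inv_def (p : D m) : p⁻¹ = ⟨-sg p.e (if p.f then p.y else p.x),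
    -sg p.e (if p.f then p.x else p.y), p.e, p.f⟩ := rfl

instance : Group (D m) where
  mul_assoc := by
    rintro ⟨a, b, e, f⟩ ⟨a', b', e', f'⟩ ⟨a'', b'', e'', f''⟩
    simp only [mul_def]
    cases e <;> cases f <;> cases e' <;> cases f' <;> simp [sg] <;> ring_nf <;> simp
  one_mul := by rintro ⟨a, b, e, f⟩; simp [mul_def, one_def, sg]
  mul_one := by rintro ⟨a, b, e, f⟩; cases e <;> cases f <;> simp [mul_def, one_def, sg]
  inv_mul_cancel := by
    rintro ⟨a, b, e, f⟩
    cases e <;> cases f <;> simp [mul_def, one_def, inv_def, sg]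

/-- Coordinates. -/
def equivProd : D m ≃ R m × R m × Bool × Bool where
  toFun p := (p.x, p.y, p.e, p.f)
  invFun q := ⟨q.1, q.2.1, q.2.2.1, q.2.2.2⟩
  left_inv _ := rfl
  right_inv _ := rfl

instance : Finite (D m) := Finite.of_equiv _ equivProd.symm

theorem card_D (m : ℕ) : Nat.card (D m) = 2 ^ (2 * m + 6) := by
  rw [Nat.card_congr equivProd, Nat.card_prod, Nat.card_prod, Nat.card_prod, Nat.card_zmod]
  simp
  ring

/-- An element of the torus. -/
def t (a b : R m) : D m := ⟨a, b, false, false⟩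
/-- The central involution. -/
def Z : D m := ⟨hh m, hh m, false, false⟩
/-- A noncentral involution of the torus. -/
def U : D m := ⟨hh m, 0, false, false⟩
/-- Inversion. -/
def c : D m := ⟨0, 0, true, false⟩
/-- Inversion times an odd element, even sum. -/
def abc : D m := ⟨1, 1, true, false⟩
/-- Inversion times an odd element, odd sum. -/
def ac : D m := ⟨1, 0, true, false⟩
/-- The swap. -/
def w : D m := ⟨0, 0, false, true⟩
/-- Inversion times the swap. -/
def wc : D m := ⟨0, 0, true, true⟩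

theorem Z_comm (p : D m) : Commute Z p := by
  obtain ⟨a, b, e, f⟩ := p
  cases e <;> cases f <;> simp [Commute, SemiconjBy, Z, mul_def, sg, neg_hh, add_comm]

theorem Z_ne_one : (Z : D m) ≠ 1 := fun h => hh_ne_zero m (congrArg D.x h)

theorem Z_sq : (Z : D m) * Z = 1 := by simp [Z, mul_def, one_def, sg, hh_add_hh]

theorem par_sg (e : Bool) (a : R m) : par m (sg e a) = par m a := by
  cases e <;> simp [sg, map_neg, CharTwo.neg_eq]

theorem ite_xor (β : ZMod 2) (e e' : Bool) :
    (if xor e e' then β else 0) = (if e then β else 0) + (if e' then β else 0) := by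
  cases e <;> cases e' <;> simp [CharTwo.add_self_eq_zero]

/-- The characters to the group of order two. -/
def chi (α β γ : ZMod 2) : D m →* Multiplicative (ZMod 2) where
  toFun p := Multiplicative.ofAdd
    (α * par m (p.x + p.y) + (if p.e then β else 0) + (if p.f then γ else 0))
  map_one' := by simp [one_def]
  map_mul' := by
    rintro ⟨a, b, e, f⟩ ⟨a', b', e', f'⟩
    simp only [mul_def, ← ofAdd_add, ite_xor, map_add, par_sg]
    congr 1
    cases f <;> simp <;> ring

theorem chi_one_iff (α β γ : ZMod 2) (p : D m) : chi α β γ p = 1 ↔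
    α * par m (p.x + p.y) + (if p.e then β else 0) + (if p.f then γ else 0) = 0 := Iff.rfl

/-- An involution of the torus. -/
theorem torus_invol {a b : R m} (h : t a b * t a b = 1) (hne : t a b ≠ 1) :
    t a b = Z ∨ t a b = U ∨ t a b = w * U * w⁻¹ := by
  have ha : a + a = 0 := by simpa [t, mul_def, one_def, sg] using congrArg D.x h
  have hb : b + b = 0 := by simpa [t, mul_def, one_def, sg] using congrArg D.y h
  rcases eq_zero_or_hh ha with rfl | rfl <;> rcases eq_zero_or_hh hb with rfl | rfl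
  · exact absurd rfl hne
  · right; right; simp [t, U, w, mul_def, inv_def, sg]
  · right; left; rfl
  · left; rfl

/-- Every involution is conjugate to one of seven. -/
theorem invol_cases {p : D m} (h : p * p = 1) (hne : p ≠ 1) :
    ∃ q : D m, q * p * q⁻¹ = Z ∨ q * p * q⁻¹ = U ∨ q * p * q⁻¹ = c ∨ q * p * q⁻¹ = abc ∨
      q * p * q⁻¹ = ac ∨ q * p * q⁻¹ = w ∨ q * p * q⁻¹ = wc := by
  obtain ⟨a, b, e, f⟩ := p
  cases e <;> cases f
  · rcases torus_invol (a := a) (b := b) h hne with h' | h' | h' <;> unfold t at h'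
    · exact ⟨1, Or.inl (by rw [h', one_mul, inv_one, mul_one])⟩
    · exact ⟨1, Or.inr (Or.inl (by rw [h', one_mul, inv_one, mul_one]))⟩
    · exact ⟨w⁻¹, Or.inr (Or.inl (by rw [h']; group))⟩
  · have hab : a + b = 0 := by simpa [mul_def, one_def, sg] using congrArg D.x h
    refine ⟨⟨-a, 0, false, false⟩, Or.inr (Or.inr (Or.inr (Or.inr (Or.inr (Or.inl ?_)))))⟩
    simp [w, mul_def, inv_def, sg]
    linear_combination hab
  · obtain ⟨i, hi⟩ := exists_half a
    obtain ⟨j, hj⟩ := exists_half b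
    have key : ∀ u v : R m, (⟨-i, -j, false, false⟩ : D m) * ⟨i + i + u, j + j + v, true, false⟩ *
        (⟨-i, -j, false, false⟩ : D m)⁻¹ = ⟨u, v, true, false⟩ := fun u v => by
      simp [mul_def, inv_def, sg]
      constructor <;> ring
    rcases hi with rfl | rfl <;> rcases hj with rfl | rfl
    · exact ⟨_, Or.inr (Or.inr (Or.inl (by simpa [c] using key 0 0)))⟩
    · refine ⟨w * ⟨-i, -j, false, false⟩, Or.inr (Or.inr (Or.inr (Or.inr (Or.inl ?_))))⟩
      have := key 0 1
      rw [add_zero] at this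
      rw [mul_inv_rev, show ∀ r s u : D m, r * s * u * (s⁻¹ * r⁻¹) = r * (s * u * s⁻¹) * r⁻¹
        from fun r s u => by group, this]
      simp [ac, w, mul_def, inv_def, sg]
    · exact ⟨_, Or.inr (Or.inr (Or.inr (Or.inr (Or.inl (by simpa [ac] using key 1 0)))))⟩
    · exact ⟨_, Or.inr (Or.inr (Or.inr (Or.inl (by simpa [abc] using key 1 1))))⟩
  · have hab : a + -b = 0 := by simpa [mul_def, one_def, sg] using congrArg D.x h
    refine ⟨⟨-a, 0, false, false⟩, Or.inr (Or.inr (Or.inr (Or.inr (Or.inr (Or.inr ?_)))))⟩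
    simp [wc, mul_def, inv_def, sg]
    linear_combination -hab

theorem commutator_shape (p q : D m) : (p * q * p⁻¹ * q⁻¹).e = false ∧
    (p * q * p⁻¹ * q⁻¹).f = false := by
  obtain ⟨a, b, e, f⟩ := p
  obtain ⟨a', b', e', f'⟩ := q
  cases e <;> cases f <;> cases e' <;> cases f' <;> simp [mul_def, inv_def]

theorem comm_c : ∃ p q : D m, Commute p c ∧ Commute q c ∧ p * q * p⁻¹ * q⁻¹ = Z :=
  ⟨U, w, by simp [Commute, SemiconjBy, U, c, mul_def, sg, neg_hh],
    by simp [Commute, SemiconjBy, w, c, mul_def, sg],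
    by simp [U, w, Z, mul_def, inv_def, sg, neg_hh]⟩

theorem comm_abc : ∃ p q : D m, Commute p abc ∧ Commute q abc ∧ p * q * p⁻¹ * q⁻¹ = Z :=
  ⟨U, w, by simp [Commute, SemiconjBy, U, abc, mul_def, sg, neg_hh, add_comm],
    by simp [Commute, SemiconjBy, w, abc, mul_def, sg],
    by simp [U, w, Z, mul_def, inv_def, sg, neg_hh]⟩

theorem comm_w : ∃ p q : D m, Commute p w ∧ Commute q w ∧ p * q * p⁻¹ * q⁻¹ = Z :=
  ⟨t (kk m) (kk m), c, by simp [Commute, SemiconjBy, t, w, mul_def, sg],
    by simp [Commute, SemiconjBy, c, w, mul_def, sg],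
    by simp [t, c, Z, mul_def, inv_def, sg, kk_add_kk]⟩

theorem comm_wc : ∃ p q : D m, Commute p wc ∧ Commute q wc ∧ p * q * p⁻¹ * q⁻¹ = Z :=
  ⟨t (kk m) (-kk m), c, by simp [Commute, SemiconjBy, t, wc, mul_def, sg],
    by simp [Commute, SemiconjBy, c, wc, mul_def, sg],
    by simp [t, c, Z, mul_def, inv_def, sg, kk_add_kk, neg_hh, ← neg_add]⟩

theorem pow_four_of_commute {v : D m} (he : v.e = true) (hf : v.f = false) {p : D m}
    (hp : Commute p v) : p ^ 4 = 1 := by
  have hT : (p * p).e = false ∧ (p * p).f = false := by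
    obtain ⟨a, b, e, f⟩ := p
    cases e <;> cases f <;> simp [mul_def]
  rw [show (4 : ℕ) = 2 * 2 from rfl, pow_mul, pow_two, pow_two]
  have hc : Commute (p * p) v := hp.mul_left hp
  obtain ⟨a, b, e, f⟩ := v
  simp only at he hf
  subst he hf
  generalize p * p = s at hT hc ⊢
  obtain ⟨x, y, e, f⟩ := s
  simp only at hT
  obtain ⟨rfl, rfl⟩ := hT
  simp [Commute, SemiconjBy, mul_def, sg] at hc
  simp [mul_def, one_def, sg]
  constructor <;> grobner

theorem t_one_pow_four (hm : 1 ≤ m) : (t 1 1 : D m) ^ 4 ≠ 1 := by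
  intro h
  apply four_ne_zero hm
  have := congrArg D.x h
  simp [pow_succ, t, mul_def, one_def, sg] at this
  push_cast
  linear_combination this

end Cfsg.Agent.G2Fusion
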